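import Cfsg.Agent.Lib.H16.CE.S1690.T6

set_option autoImplicit false
set_option maxRecDepth 1000000

namespace Cfsg.Agent.H16.CE.S1690
open Cfsg.Agent.H16.CosetEnum
open Cfsg.Agent.H16.Enum (walk)

noncomputable section

theorem hr16 : rangeAll (allAt LL) 8304 519 = true := by decide +kernel
theorem hr17 : rangeAll (allAt LL) 8823 519 = true := by decide +kernel
theorem hr18 : rangeAll (allAt LL) 9342 519 = true := by decide +kernel
theorem hr19 : rangeAll (allAt LL) 9861 519 = true := by decide +kernel
theorem hr20 : rangeAll (allAt LL) 10380 519 = true := by decide +kernel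
theorem hr21 : rangeAll (allAt LL) 10899 519 = true := by decide +kernel
theorem hr22 : rangeAll (allAt LL) 11418 519 = true := by decide +kernel
theorem hr23 : rangeAll (allAt LL) 11937 519 = true := by decide +kernel

end

end Cfsg.Agent.H16.CE.S1690
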