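import Cfsg.Agent.Lib.H16.CE.S1690.T6

set_option autoImplicit false
set_option maxRecDepth 1000000

namespace Cfsg.Agent.H16.CE.S1690
open Cfsg.Agent.H16.CosetEnum
open Cfsg.Agent.H16.Enum (walk)

noncomputable section

theorem hr24 : rangeAll (allAt LL) 12456 519 = true := by decide +kernel
theorem hr25 : rangeAll (allAt LL) 12975 519 = true := by decide +kernel
theorem hr26 : rangeAll (allAt LL) 13494 519 = true := by decide +kernel
theorem hr27 : rangeAll (allAt LL) 14013 519 = true := by decide +kernel
theorem hr28 : rangeAll (allAt LL) 14532 519 = true := by decide +kernel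
theorem hr29 : rangeAll (allAt LL) 15051 519 = true := by decide +kernel
theorem hr30 : rangeAll (allAt LL) 15570 519 = true := by decide +kernel
theorem hr31 : rangeAll (allAt LL) 16089 519 = true := by decide +kernel

end

end Cfsg.Agent.H16.CE.S1690
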