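import Cfsg.Agent.Lib.H16.CE.S1690.T6

set_option autoImplicit false
set_option maxRecDepth 1000000

namespace Cfsg.Agent.H16.CE.S1690
open Cfsg.Agent.H16.CosetEnum
open Cfsg.Agent.H16.Enum (walk)

noncomputable section

theorem hr32 : rangeAll (allAt LL) 16608 519 = true := by decide +kernel
theorem hr33 : rangeAll (allAt LL) 17127 519 = true := by decide +kernel
theorem hr34 : rangeAll (allAt LL) 17646 519 = true := by decide +kernel
theorem hr35 : rangeAll (allAt LL) 18165 519 = true := by decide +kernel
theorem hr36 : rangeAll (allAt LL) 18684 519 = true := by decide +kernel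
theorem hr37 : rangeAll (allAt LL) 19203 519 = true := by decide +kernel
theorem hr38 : rangeAll (allAt LL) 19722 519 = true := by decide +kernel
theorem hr39 : rangeAll (allAt LL) 20241 519 = true := by decide +kernel

end

end Cfsg.Agent.H16.CE.S1690
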