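import Cfsg.Agent.Lib.H16.CE.S1690.T6

set_option autoImplicit false
set_option maxRecDepth 1000000

namespace Cfsg.Agent.H16.CE.S1690
open Cfsg.Agent.H16.CosetEnum
open Cfsg.Agent.H16.Enum (walk)

noncomputable section

theorem hr40 : rangeAll (allAt LL) 20760 519 = true := by decide +kernel
theorem hr41 : rangeAll (allAt LL) 21279 519 = true := by decide +kernel
theorem hr42 : rangeAll (allAt LL) 21798 519 = true := by decide +kernel
theorem hr43 : rangeAll (allAt LL) 22317 519 = true := by decide +kernel
theorem hr44 : rangeAll (allAt LL) 22836 519 = true := by decide +kernel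
theorem hr45 : rangeAll (allAt LL) 23355 519 = true := by decide +kernel
theorem hr46 : rangeAll (allAt LL) 23874 519 = true := by decide +kernel
theorem hr47 : rangeAll (allAt LL) 24393 519 = true := by decide +kernel

end

end Cfsg.Agent.H16.CE.S1690
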