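import Cfsg.Agent.Lib.H16.CE.S1690.T6

set_option autoImplicit false
set_option maxRecDepth 1000000

namespace Cfsg.Agent.H16.CE.S1690
open Cfsg.Agent.H16.CosetEnum
open Cfsg.Agent.H16.Enum (walk)

noncomputable section

theorem hr48 : rangeAll (allAt LL) 24912 519 = true := by decide +kernel
theorem hr49 : rangeAll (allAt LL) 25431 519 = true := by decide +kernel
theorem hr50 : rangeAll (allAt LL) 25950 519 = true := by decide +kernel
theorem hr51 : rangeAll (allAt LL) 26469 519 = true := by decide +kernel
theorem hr52 : rangeAll (allAt LL) 26988 519 = true := by decide +kernel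
theorem hr53 : rangeAll (allAt LL) 27507 519 = true := by decide +kernel
theorem hr54 : rangeAll (allAt LL) 28026 519 = true := by decide +kernel
theorem hr55 : rangeAll (allAt LL) 28545 519 = true := by decide +kernel

end

end Cfsg.Agent.H16.CE.S1690
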