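import Cfsg.Agent.Lib.H16.CE.S1690.T6

set_option autoImplicit false
set_option maxRecDepth 1000000

namespace Cfsg.Agent.H16.CE.S1690
open Cfsg.Agent.H16.CosetEnum
open Cfsg.Agent.H16.Enum (walk)

noncomputable section

theorem hr64 : rangeAll (allAt LL) 33216 519 = true := by decide +kernel
theorem hr65 : rangeAll (allAt LL) 33735 519 = true := by decide +kernel
theorem hr66 : rangeAll (allAt LL) 34254 519 = true := by decide +kernel
theorem hr67 : rangeAll (allAt LL) 34773 519 = true := by decide +kernel
theorem hr68 : rangeAll (allAt LL) 35292 519 = true := by decide +kernel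
theorem hr69 : rangeAll (allAt LL) 35811 519 = true := by decide +kernel
theorem hr70 : rangeAll (allAt LL) 36330 519 = true := by decide +kernel
theorem hr71 : rangeAll (allAt LL) 36849 519 = true := by decide +kernel

end

end Cfsg.Agent.H16.CE.S1690
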