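import Cfsg.Agent.Lib.H16.CE.S1690.T6

set_option autoImplicit false
set_option maxRecDepth 1000000

namespace Cfsg.Agent.H16.CE.S1690
open Cfsg.Agent.H16.CosetEnum
open Cfsg.Agent.H16.Enum (walk)

noncomputable section

theorem hr72 : rangeAll (allAt LL) 37368 519 = true := by decide +kernel
theorem hr73 : rangeAll (allAt LL) 37887 519 = true := by decide +kernel
theorem hr74 : rangeAll (allAt LL) 38406 519 = true := by decide +kernel
theorem hr75 : rangeAll (allAt LL) 38925 519 = true := by decide +kernel
theorem hr76 : rangeAll (allAt LL) 39444 519 = true := by decide +kernel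
theorem hr77 : rangeAll (allAt LL) 39963 519 = true := by decide +kernel
theorem hr78 : rangeAll (allAt LL) 40482 519 = true := by decide +kernel
theorem hr79 : rangeAll (allAt LL) 41001 519 = true := by decide +kernel

end

end Cfsg.Agent.H16.CE.S1690
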