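import Cfsg.Agent.Lib.H16.CE.S1690.T6

set_option autoImplicit false
set_option maxRecDepth 1000000

namespace Cfsg.Agent.H16.CE.S1690
open Cfsg.Agent.H16.CosetEnum
open Cfsg.Agent.H16.Enum (walk)

noncomputable section

theorem hr80 : rangeAll (allAt LL) 41520 519 = true := by decide +kernel
theorem hr81 : rangeAll (allAt LL) 42039 519 = true := by decide +kernel
theorem hr82 : rangeAll (allAt LL) 42558 519 = true := by decide +kernel
theorem hr83 : rangeAll (allAt LL) 43077 519 = true := by decide +kernel
theorem hr84 : rangeAll (allAt LL) 43596 519 = true := by decide +kernel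
theorem hr85 : rangeAll (allAt LL) 44115 519 = true := by decide +kernel
theorem hr86 : rangeAll (allAt LL) 44634 519 = true := by decide +kernel
theorem hr87 : rangeAll (allAt LL) 45153 519 = true := by decide +kernel

end

end Cfsg.Agent.H16.CE.S1690
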