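import Cfsg.Agent.Lib.H16.CE.S1690.T6

set_option autoImplicit false
set_option maxRecDepth 1000000

namespace Cfsg.Agent.H16.CE.S1690
open Cfsg.Agent.H16.CosetEnum
open Cfsg.Agent.H16.Enum (walk)

noncomputable section

theorem hr88 : rangeAll (allAt LL) 45672 519 = true := by decide +kernel
theorem hr89 : rangeAll (allAt LL) 46191 519 = true := by decide +kernel
theorem hr90 : rangeAll (allAt LL) 46710 519 = true := by decide +kernel
theorem hr91 : rangeAll (allAt LL) 47229 519 = true := by decide +kernel
theorem hr92 : rangeAll (allAt LL) 47748 519 = true := by decide +kernel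
theorem hr93 : rangeAll (allAt LL) 48267 519 = true := by decide +kernel
theorem hr94 : rangeAll (allAt LL) 48786 519 = true := by decide +kernel
theorem hr95 : rangeAll (allAt LL) 49305 519 = true := by decide +kernel

end

end Cfsg.Agent.H16.CE.S1690
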