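import Cfsg.Agent.Lib.H16.CE.S1690.T6

set_option autoImplicit false
set_option maxRecDepth 1000000

namespace Cfsg.Agent.H16.CE.S1690
open Cfsg.Agent.H16.CosetEnum
open Cfsg.Agent.H16.Enum (walk)

noncomputable section

theorem hr96 : rangeAll (allAt LL) 49824 519 = true := by decide +kernel
theorem hr97 : rangeAll (allAt LL) 50343 519 = true := by decide +kernel
theorem hr98 : rangeAll (allAt LL) 50862 519 = true := by decide +kernel
theorem hr99 : rangeAll (allAt LL) 51381 519 = true := by decide +kernel
theorem hr100 : rangeAll (allAt LL) 51900 519 = true := by decide +kernel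
theorem hr101 : rangeAll (allAt LL) 52419 519 = true := by decide +kernel
theorem hr102 : rangeAll (allAt LL) 52938 519 = true := by decide +kernel
theorem hr103 : rangeAll (allAt LL) 53457 519 = true := by decide +kernel

end

end Cfsg.Agent.H16.CE.S1690
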