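import Cfsg.Agent.Lib.H16.CE.S1690.T6

set_option autoImplicit false
set_option maxRecDepth 1000000

namespace Cfsg.Agent.H16.CE.S1690
open Cfsg.Agent.H16.CosetEnum
open Cfsg.Agent.H16.Enum (walk)

noncomputable section

theorem hr104 : rangeAll (allAt LL) 53976 519 = true := by decide +kernel
theorem hr105 : rangeAll (allAt LL) 54495 519 = true := by decide +kernel
theorem hr106 : rangeAll (allAt LL) 55014 519 = true := by decide +kernel
theorem hr107 : rangeAll (allAt LL) 55533 519 = true := by decide +kernel
theorem hr108 : rangeAll (allAt LL) 56052 519 = true := by decide +kernel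
theorem hr109 : rangeAll (allAt LL) 56571 519 = true := by decide +kernel
theorem hr110 : rangeAll (allAt LL) 57090 519 = true := by decide +kernel
theorem hr111 : rangeAll (allAt LL) 57609 519 = true := by decide +kernel

end

end Cfsg.Agent.H16.CE.S1690
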