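import Cfsg.Agent.Lib.H16.CE.S1690.T6

set_option autoImplicit false
set_option maxRecDepth 1000000

namespace Cfsg.Agent.H16.CE.S1690
open Cfsg.Agent.H16.CosetEnum
open Cfsg.Agent.H16.Enum (walk)

noncomputable section

theorem hr112 : rangeAll (allAt LL) 58128 519 = true := by decide +kernel
theorem hr113 : rangeAll (allAt LL) 58647 519 = true := by decide +kernel
theorem hr114 : rangeAll (allAt LL) 59166 519 = true := by decide +kernel
theorem hr115 : rangeAll (allAt LL) 59685 519 = true := by decide +kernel
theorem hr116 : rangeAll (allAt LL) 60204 519 = true := by decide +kernel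
theorem hr117 : rangeAll (allAt LL) 60723 519 = true := by decide +kernel
theorem hr118 : rangeAll (allAt LL) 61242 519 = true := by decide +kernel
theorem hr119 : rangeAll (allAt LL) 61761 519 = true := by decide +kernel

end

end Cfsg.Agent.H16.CE.S1690
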