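import Cfsg.Agent.Lib.H16.CE.S1690.T6

set_option autoImplicit false
set_option maxRecDepth 1000000

namespace Cfsg.Agent.H16.CE.S1690
open Cfsg.Agent.H16.CosetEnum
open Cfsg.Agent.H16.Enum (walk)

noncomputable section

theorem hr120 : rangeAll (allAt LL) 62280 519 = true := by decide +kernel
theorem hr121 : rangeAll (allAt LL) 62799 519 = true := by decide +kernel
theorem hr122 : rangeAll (allAt LL) 63318 519 = true := by decide +kernel
theorem hr123 : rangeAll (allAt LL) 63837 519 = true := by decide +kernel
theorem hr124 : rangeAll (allAt LL) 64356 519 = true := by decide +kernel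
theorem hr125 : rangeAll (allAt LL) 64875 519 = true := by decide +kernel
theorem hr126 : rangeAll (allAt LL) 65394 519 = true := by decide +kernel
theorem hr127 : rangeAll (allAt LL) 65913 519 = true := by decide +kernel

end

end Cfsg.Agent.H16.CE.S1690
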