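import Cfsg.Agent.Lib.H16.CE.S1690.T6

set_option autoImplicit false
set_option maxRecDepth 1000000

namespace Cfsg.Agent.H16.CE.S1690
open Cfsg.Agent.H16.CosetEnum
open Cfsg.Agent.H16.Enum (walk)

noncomputable section

theorem hr128 : rangeAll (allAt LL) 66432 519 = true := by decide +kernel
theorem hr129 : rangeAll (allAt LL) 66951 519 = true := by decide +kernel
theorem hr130 : rangeAll (allAt LL) 67470 519 = true := by decide +kernel
theorem hr131 : rangeAll (allAt LL) 67989 519 = true := by decide +kernel
theorem hr132 : rangeAll (allAt LL) 68508 519 = true := by decide +kernel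
theorem hr133 : rangeAll (allAt LL) 69027 519 = true := by decide +kernel
theorem hr134 : rangeAll (allAt LL) 69546 519 = true := by decide +kernel
theorem hr135 : rangeAll (allAt LL) 70065 519 = true := by decide +kernel

end

end Cfsg.Agent.H16.CE.S1690
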