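import Cfsg.Agent.Lib.H16.CE.S1690.T6

set_option autoImplicit false
set_option maxRecDepth 1000000

namespace Cfsg.Agent.H16.CE.S1690
open Cfsg.Agent.H16.CosetEnum
open Cfsg.Agent.H16.Enum (walk)

noncomputable section

theorem hr136 : rangeAll (allAt LL) 70584 519 = true := by decide +kernel
theorem hr137 : rangeAll (allAt LL) 71103 519 = true := by decide +kernel
theorem hr138 : rangeAll (allAt LL) 71622 519 = true := by decide +kernel
theorem hr139 : rangeAll (allAt LL) 72141 519 = true := by decide +kernel
theorem hr140 : rangeAll (allAt LL) 72660 519 = true := by decide +kernel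
theorem hr141 : rangeAll (allAt LL) 73179 519 = true := by decide +kernel
theorem hr142 : rangeAll (allAt LL) 73698 519 = true := by decide +kernel
theorem hr143 : rangeAll (allAt LL) 74217 519 = true := by decide +kernel

end

end Cfsg.Agent.H16.CE.S1690
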