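import Cfsg.Agent.Lib.H16.CE.S1690.T6

set_option autoImplicit false
set_option maxRecDepth 1000000

namespace Cfsg.Agent.H16.CE.S1690
open Cfsg.Agent.H16.CosetEnum
open Cfsg.Agent.H16.Enum (walk)

noncomputable section

theorem hr144 : rangeAll (allAt LL) 74736 519 = true := by decide +kernel
theorem hr145 : rangeAll (allAt LL) 75255 519 = true := by decide +kernel
theorem hr146 : rangeAll (allAt LL) 75774 519 = true := by decide +kernel
theorem hr147 : rangeAll (allAt LL) 76293 519 = true := by decide +kernel
theorem hr148 : rangeAll (allAt LL) 76812 519 = true := by decide +kernel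
theorem hr149 : rangeAll (allAt LL) 77331 519 = true := by decide +kernel
theorem hr150 : rangeAll (allAt LL) 77850 519 = true := by decide +kernel
theorem hr151 : rangeAll (allAt LL) 78369 519 = true := by decide +kernel

end

end Cfsg.Agent.H16.CE.S1690
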