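import Cfsg.Agent.Lib.H16.CE.S1690.T6

set_option autoImplicit false
set_option maxRecDepth 1000000

namespace Cfsg.Agent.H16.CE.S1690
open Cfsg.Agent.H16.CosetEnum
open Cfsg.Agent.H16.Enum (walk)

noncomputable section

theorem hr152 : rangeAll (allAt LL) 78888 519 = true := by decide +kernel
theorem hr153 : rangeAll (allAt LL) 79407 519 = true := by decide +kernel
theorem hr154 : rangeAll (allAt LL) 79926 519 = true := by decide +kernel
theorem hr155 : rangeAll (allAt LL) 80445 519 = true := by decide +kernel
theorem hr156 : rangeAll (allAt LL) 80964 519 = true := by decide +kernel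
theorem hr157 : rangeAll (allAt LL) 81483 519 = true := by decide +kernel
theorem hr158 : rangeAll (allAt LL) 82002 519 = true := by decide +kernel
theorem hr159 : rangeAll (allAt LL) 82521 519 = true := by decide +kernel

end

end Cfsg.Agent.H16.CE.S1690
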