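import Cfsg.Agent.Lib.H16.CE.S1690.T6

set_option autoImplicit false
set_option maxRecDepth 1000000

namespace Cfsg.Agent.H16.CE.S1690
open Cfsg.Agent.H16.CosetEnum
open Cfsg.Agent.H16.Enum (walk)

noncomputable section

theorem hr160 : rangeAll (allAt LL) 83040 519 = true := by decide +kernel
theorem hr161 : rangeAll (allAt LL) 83559 519 = true := by decide +kernel
theorem hr162 : rangeAll (allAt LL) 84078 519 = true := by decide +kernel
theorem hr163 : rangeAll (allAt LL) 84597 519 = true := by decide +kernel
theorem hr164 : rangeAll (allAt LL) 85116 519 = true := by decide +kernel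
theorem hr165 : rangeAll (allAt LL) 85635 519 = true := by decide +kernel
theorem hr166 : rangeAll (allAt LL) 86154 519 = true := by decide +kernel
theorem hr167 : rangeAll (allAt LL) 86673 519 = true := by decide +kernel

end

end Cfsg.Agent.H16.CE.S1690
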