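import Cfsg.Agent.Lib.H16.CE.S1690.T6

set_option autoImplicit false
set_option maxRecDepth 1000000

namespace Cfsg.Agent.H16.CE.S1690
open Cfsg.Agent.H16.CosetEnum
open Cfsg.Agent.H16.Enum (walk)

noncomputable section

theorem hr168 : rangeAll (allAt LL) 87192 519 = true := by decide +kernel
theorem hr169 : rangeAll (allAt LL) 87711 519 = true := by decide +kernel
theorem hr170 : rangeAll (allAt LL) 88230 519 = true := by decide +kernel
theorem hr171 : rangeAll (allAt LL) 88749 519 = true := by decide +kernel
theorem hr172 : rangeAll (allAt LL) 89268 519 = true := by decide +kernel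
theorem hr173 : rangeAll (allAt LL) 89787 519 = true := by decide +kernel
theorem hr174 : rangeAll (allAt LL) 90306 519 = true := by decide +kernel
theorem hr175 : rangeAll (allAt LL) 90825 519 = true := by decide +kernel

end

end Cfsg.Agent.H16.CE.S1690
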