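import Cfsg.Agent.Lib.H16.CE.S1690.T6

set_option autoImplicit false
set_option maxRecDepth 1000000

namespace Cfsg.Agent.H16.CE.S1690
open Cfsg.Agent.H16.CosetEnum
open Cfsg.Agent.H16.Enum (walk)

noncomputable section

theorem hr176 : rangeAll (allAt LL) 91344 519 = true := by decide +kernel
theorem hr177 : rangeAll (allAt LL) 91863 519 = true := by decide +kernel
theorem hr178 : rangeAll (allAt LL) 92382 519 = true := by decide +kernel
theorem hr179 : rangeAll (allAt LL) 92901 519 = true := by decide +kernel
theorem hr180 : rangeAll (allAt LL) 93420 519 = true := by decide +kernel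
theorem hr181 : rangeAll (allAt LL) 93939 519 = true := by decide +kernel
theorem hr182 : rangeAll (allAt LL) 94458 519 = true := by decide +kernel
theorem hr183 : rangeAll (allAt LL) 94977 519 = true := by decide +kernel

end

end Cfsg.Agent.H16.CE.S1690
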