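import Cfsg.Agent.Lib.H16.CE.S1690.T6

set_option autoImplicit false
set_option maxRecDepth 1000000

namespace Cfsg.Agent.H16.CE.S1690
open Cfsg.Agent.H16.CosetEnum
open Cfsg.Agent.H16.Enum (walk)

noncomputable section

theorem hr184 : rangeAll (allAt LL) 95496 519 = true := by decide +kernel
theorem hr185 : rangeAll (allAt LL) 96015 519 = true := by decide +kernel
theorem hr186 : rangeAll (allAt LL) 96534 519 = true := by decide +kernel
theorem hr187 : rangeAll (allAt LL) 97053 519 = true := by decide +kernel
theorem hr188 : rangeAll (allAt LL) 97572 519 = true := by decide +kernel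
theorem hr189 : rangeAll (allAt LL) 98091 519 = true := by decide +kernel
theorem hr190 : rangeAll (allAt LL) 98610 519 = true := by decide +kernel
theorem hr191 : rangeAll (allAt LL) 99129 519 = true := by decide +kernel

end

end Cfsg.Agent.H16.CE.S1690
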