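import Cfsg.Agent.Lib.H16.CE.S1690.T6

set_option autoImplicit false
set_option maxRecDepth 1000000

namespace Cfsg.Agent.H16.CE.S1690
open Cfsg.Agent.H16.CosetEnum
open Cfsg.Agent.H16.Enum (walk)

noncomputable section

theorem hr192 : rangeAll (allAt LL) 99648 519 = true := by decide +kernel
theorem hr193 : rangeAll (allAt LL) 100167 519 = true := by decide +kernel
theorem hr194 : rangeAll (allAt LL) 100686 519 = true := by decide +kernel
theorem hr195 : rangeAll (allAt LL) 101205 519 = true := by decide +kernel
theorem hr196 : rangeAll (allAt LL) 101724 519 = true := by decide +kernel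
theorem hr197 : rangeAll (allAt LL) 102243 519 = true := by decide +kernel
theorem hr198 : rangeAll (allAt LL) 102762 519 = true := by decide +kernel
theorem hr199 : rangeAll (allAt LL) 103281 519 = true := by decide +kernel

end

end Cfsg.Agent.H16.CE.S1690
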