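import Cfsg.Agent.Lib.H16.CE.S1690.T6

set_option autoImplicit false
set_option maxRecDepth 1000000

namespace Cfsg.Agent.H16.CE.S1690
open Cfsg.Agent.H16.CosetEnum
open Cfsg.Agent.H16.Enum (walk)

noncomputable section

theorem hr200 : rangeAll (allAt LL) 103800 519 = true := by decide +kernel
theorem hr201 : rangeAll (allAt LL) 104319 519 = true := by decide +kernel
theorem hr202 : rangeAll (allAt LL) 104838 519 = true := by decide +kernel
theorem hr203 : rangeAll (allAt LL) 105357 519 = true := by decide +kernel
theorem hr204 : rangeAll (allAt LL) 105876 519 = true := by decide +kernel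
theorem hr205 : rangeAll (allAt LL) 106395 519 = true := by decide +kernel
theorem hr206 : rangeAll (allAt LL) 106914 519 = true := by decide +kernel
theorem hr207 : rangeAll (allAt LL) 107433 519 = true := by decide +kernel

end

end Cfsg.Agent.H16.CE.S1690
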