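import Cfsg.Agent.Lib.H16.CE.S1690.T6

set_option autoImplicit false
set_option maxRecDepth 1000000

namespace Cfsg.Agent.H16.CE.S1690
open Cfsg.Agent.H16.CosetEnum
open Cfsg.Agent.H16.Enum (walk)

noncomputable section

theorem hr208 : rangeAll (allAt LL) 107952 519 = true := by decide +kernel
theorem hr209 : rangeAll (allAt LL) 108471 519 = true := by decide +kernel
theorem hr210 : rangeAll (allAt LL) 108990 519 = true := by decide +kernel
theorem hr211 : rangeAll (allAt LL) 109509 519 = true := by decide +kernel
theorem hr212 : rangeAll (allAt LL) 110028 519 = true := by decide +kernel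
theorem hr213 : rangeAll (allAt LL) 110547 519 = true := by decide +kernel
theorem hr214 : rangeAll (allAt LL) 111066 519 = true := by decide +kernel
theorem hr215 : rangeAll (allAt LL) 111585 519 = true := by decide +kernel

end

end Cfsg.Agent.H16.CE.S1690
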