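import Cfsg.Agent.Lib.H16.CE.S1690.T6

set_option autoImplicit false
set_option maxRecDepth 1000000

namespace Cfsg.Agent.H16.CE.S1690
open Cfsg.Agent.H16.CosetEnum
open Cfsg.Agent.H16.Enum (walk)

noncomputable section

theorem hr216 : rangeAll (allAt LL) 112104 519 = true := by decide +kernel
theorem hr217 : rangeAll (allAt LL) 112623 519 = true := by decide +kernel
theorem hr218 : rangeAll (allAt LL) 113142 519 = true := by decide +kernel
theorem hr219 : rangeAll (allAt LL) 113661 519 = true := by decide +kernel
theorem hr220 : rangeAll (allAt LL) 114180 519 = true := by decide +kernel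
theorem hr221 : rangeAll (allAt LL) 114699 519 = true := by decide +kernel
theorem hr222 : rangeAll (allAt LL) 115218 519 = true := by decide +kernel
theorem hr223 : rangeAll (allAt LL) 115737 519 = true := by decide +kernel

end

end Cfsg.Agent.H16.CE.S1690
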