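import Cfsg.Agent.Lib.H16.CE.S1690.T6

set_option autoImplicit false
set_option maxRecDepth 1000000

namespace Cfsg.Agent.H16.CE.S1690
open Cfsg.Agent.H16.CosetEnum
open Cfsg.Agent.H16.Enum (walk)

noncomputable section

theorem hr224 : rangeAll (allAt LL) 116256 519 = true := by decide +kernel
theorem hr225 : rangeAll (allAt LL) 116775 519 = true := by decide +kernel
theorem hr226 : rangeAll (allAt LL) 117294 519 = true := by decide +kernel
theorem hr227 : rangeAll (allAt LL) 117813 519 = true := by decide +kernel
theorem hr228 : rangeAll (allAt LL) 118332 519 = true := by decide +kernel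
theorem hr229 : rangeAll (allAt LL) 118851 519 = true := by decide +kernel
theorem hr230 : rangeAll (allAt LL) 119370 519 = true := by decide +kernel
theorem hr231 : rangeAll (allAt LL) 119889 519 = true := by decide +kernel

end

end Cfsg.Agent.H16.CE.S1690
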