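import Cfsg.Agent.Lib.H16.CE.S1690.T6

set_option autoImplicit false
set_option maxRecDepth 1000000

namespace Cfsg.Agent.H16.CE.S1690
open Cfsg.Agent.H16.CosetEnum
open Cfsg.Agent.H16.Enum (walk)

noncomputable section

theorem hr232 : rangeAll (allAt LL) 120408 519 = true := by decide +kernel
theorem hr233 : rangeAll (allAt LL) 120927 519 = true := by decide +kernel
theorem hr234 : rangeAll (allAt LL) 121446 519 = true := by decide +kernel
theorem hr235 : rangeAll (allAt LL) 121965 519 = true := by decide +kernel
theorem hr236 : rangeAll (allAt LL) 122484 519 = true := by decide +kernel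
theorem hr237 : rangeAll (allAt LL) 123003 519 = true := by decide +kernel
theorem hr238 : rangeAll (allAt LL) 123522 519 = true := by decide +kernel
theorem hr239 : rangeAll (allAt LL) 124041 519 = true := by decide +kernel

end

end Cfsg.Agent.H16.CE.S1690
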