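import Cfsg.Agent.Lib.H16.CE.S1690.T6

set_option autoImplicit false
set_option maxRecDepth 1000000

namespace Cfsg.Agent.H16.CE.S1690
open Cfsg.Agent.H16.CosetEnum
open Cfsg.Agent.H16.Enum (walk)

noncomputable section

theorem hr240 : rangeAll (allAt LL) 124560 519 = true := by decide +kernel
theorem hr241 : rangeAll (allAt LL) 125079 519 = true := by decide +kernel
theorem hr242 : rangeAll (allAt LL) 125598 519 = true := by decide +kernel
theorem hr243 : rangeAll (allAt LL) 126117 519 = true := by decide +kernel
theorem hr244 : rangeAll (allAt LL) 126636 519 = true := by decide +kernel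
theorem hr245 : rangeAll (allAt LL) 127155 519 = true := by decide +kernel
theorem hr246 : rangeAll (allAt LL) 127674 519 = true := by decide +kernel
theorem hr247 : rangeAll (allAt LL) 128193 519 = true := by decide +kernel

end

end Cfsg.Agent.H16.CE.S1690
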