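import Cfsg.Agent.Lib.H16.CE.S1690.T6

set_option autoImplicit false
set_option maxRecDepth 1000000

namespace Cfsg.Agent.H16.CE.S1690
open Cfsg.Agent.H16.CosetEnum
open Cfsg.Agent.H16.Enum (walk)

noncomputable section

theorem hr248 : rangeAll (allAt LL) 128712 519 = true := by decide +kernel
theorem hr249 : rangeAll (allAt LL) 129231 519 = true := by decide +kernel
theorem hr250 : rangeAll (allAt LL) 129750 519 = true := by decide +kernel
theorem hr251 : rangeAll (allAt LL) 130269 519 = true := by decide +kernel
theorem hr252 : rangeAll (allAt LL) 130788 519 = true := by decide +kernel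
theorem hr253 : rangeAll (allAt LL) 131307 519 = true := by decide +kernel
theorem hr254 : rangeAll (allAt LL) 131826 519 = true := by decide +kernel
theorem hr255 : rangeAll (allAt LL) 132345 519 = true := by decide +kernel

end

end Cfsg.Agent.H16.CE.S1690
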