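import Cfsg.Agent.Lib.H16.CE.S1690.T6

set_option autoImplicit false
set_option maxRecDepth 1000000

namespace Cfsg.Agent.H16.CE.S1690
open Cfsg.Agent.H16.CosetEnum
open Cfsg.Agent.H16.Enum (walk)

noncomputable section

theorem hr256 : rangeAll (allAt LL) 132864 519 = true := by decide +kernel
theorem hr257 : rangeAll (allAt LL) 133383 519 = true := by decide +kernel
theorem hr258 : rangeAll (allAt LL) 133902 519 = true := by decide +kernel
theorem hr259 : rangeAll (allAt LL) 134421 519 = true := by decide +kernel
theorem hr260 : rangeAll (allAt LL) 134940 519 = true := by decide +kernel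
theorem hr261 : rangeAll (allAt LL) 135459 519 = true := by decide +kernel
theorem hr262 : rangeAll (allAt LL) 135978 519 = true := by decide +kernel
theorem hr263 : rangeAll (allAt LL) 136497 519 = true := by decide +kernel

end

end Cfsg.Agent.H16.CE.S1690
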