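import Cfsg.Agent.Lib.H16.CE.S1690.T6

set_option autoImplicit false
set_option maxRecDepth 1000000

namespace Cfsg.Agent.H16.CE.S1690
open Cfsg.Agent.H16.CosetEnum
open Cfsg.Agent.H16.Enum (walk)

noncomputable section

theorem hr264 : rangeAll (allAt LL) 137016 519 = true := by decide +kernel
theorem hr265 : rangeAll (allAt LL) 137535 519 = true := by decide +kernel
theorem hr266 : rangeAll (allAt LL) 138054 519 = true := by decide +kernel
theorem hr267 : rangeAll (allAt LL) 138573 519 = true := by decide +kernel
theorem hr268 : rangeAll (allAt LL) 139092 519 = true := by decide +kernel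
theorem hr269 : rangeAll (allAt LL) 139611 519 = true := by decide +kernel
theorem hr270 : rangeAll (allAt LL) 140130 519 = true := by decide +kernel
theorem hr271 : rangeAll (allAt LL) 140649 519 = true := by decide +kernel

end

end Cfsg.Agent.H16.CE.S1690
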