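import Cfsg.Agent.Lib.H16.CE.S1690.T6

set_option autoImplicit false
set_option maxRecDepth 1000000

namespace Cfsg.Agent.H16.CE.S1690
open Cfsg.Agent.H16.CosetEnum
open Cfsg.Agent.H16.Enum (walk)

noncomputable section

theorem hr272 : rangeAll (allAt LL) 141168 519 = true := by decide +kernel
theorem hr273 : rangeAll (allAt LL) 141687 519 = true := by decide +kernel
theorem hr274 : rangeAll (allAt LL) 142206 519 = true := by decide +kernel
theorem hr275 : rangeAll (allAt LL) 142725 519 = true := by decide +kernel
theorem hr276 : rangeAll (allAt LL) 143244 519 = true := by decide +kernel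
theorem hr277 : rangeAll (allAt LL) 143763 519 = true := by decide +kernel
theorem hr278 : rangeAll (allAt LL) 144282 519 = true := by decide +kernel
theorem hr279 : rangeAll (allAt LL) 144801 519 = true := by decide +kernel

end

end Cfsg.Agent.H16.CE.S1690
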