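import Cfsg.Agent.Lib.H16.CE.S1690.T6

set_option autoImplicit false
set_option maxRecDepth 1000000

namespace Cfsg.Agent.H16.CE.S1690
open Cfsg.Agent.H16.CosetEnum
open Cfsg.Agent.H16.Enum (walk)

noncomputable section

theorem hr280 : rangeAll (allAt LL) 145320 519 = true := by decide +kernel
theorem hr281 : rangeAll (allAt LL) 145839 519 = true := by decide +kernel
theorem hr282 : rangeAll (allAt LL) 146358 519 = true := by decide +kernel
theorem hr283 : rangeAll (allAt LL) 146877 519 = true := by decide +kernel
theorem hr284 : rangeAll (allAt LL) 147396 519 = true := by decide +kernel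
theorem hr285 : rangeAll (allAt LL) 147915 519 = true := by decide +kernel
theorem hr286 : rangeAll (allAt LL) 148434 519 = true := by decide +kernel
theorem hr287 : rangeAll (allAt LL) 148953 519 = true := by decide +kernel

end

end Cfsg.Agent.H16.CE.S1690
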