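import Cfsg.Agent.Lib.H16.CE.S1690.T6

set_option autoImplicit false
set_option maxRecDepth 1000000

namespace Cfsg.Agent.H16.CE.S1690
open Cfsg.Agent.H16.CosetEnum
open Cfsg.Agent.H16.Enum (walk)

noncomputable section

theorem hr288 : rangeAll (allAt LL) 149472 519 = true := by decide +kernel
theorem hr289 : rangeAll (allAt LL) 149991 519 = true := by decide +kernel
theorem hr290 : rangeAll (allAt LL) 150510 519 = true := by decide +kernel
theorem hr291 : rangeAll (allAt LL) 151029 519 = true := by decide +kernel
theorem hr292 : rangeAll (allAt LL) 151548 519 = true := by decide +kernel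
theorem hr293 : rangeAll (allAt LL) 152067 519 = true := by decide +kernel
theorem hr294 : rangeAll (allAt LL) 152586 519 = true := by decide +kernel
theorem hr295 : rangeAll (allAt LL) 153105 519 = true := by decide +kernel

end

end Cfsg.Agent.H16.CE.S1690
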