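import Cfsg.Agent.Lib.H16.CE.S1690.T6

set_option autoImplicit false
set_option maxRecDepth 1000000

namespace Cfsg.Agent.H16.CE.S1690
open Cfsg.Agent.H16.CosetEnum
open Cfsg.Agent.H16.Enum (walk)

noncomputable section

theorem hr296 : rangeAll (allAt LL) 153624 519 = true := by decide +kernel
theorem hr297 : rangeAll (allAt LL) 154143 519 = true := by decide +kernel
theorem hr298 : rangeAll (allAt LL) 154662 519 = true := by decide +kernel
theorem hr299 : rangeAll (allAt LL) 155181 519 = true := by decide +kernel
theorem hr300 : rangeAll (allAt LL) 155700 519 = true := by decide +kernel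
theorem hr301 : rangeAll (allAt LL) 156219 519 = true := by decide +kernel
theorem hr302 : rangeAll (allAt LL) 156738 519 = true := by decide +kernel
theorem hr303 : rangeAll (allAt LL) 157257 519 = true := by decide +kernel

end

end Cfsg.Agent.H16.CE.S1690
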