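import Cfsg.Agent.Lib.H16.CE.S1690.T6

set_option autoImplicit false
set_option maxRecDepth 1000000

namespace Cfsg.Agent.H16.CE.S1690
open Cfsg.Agent.H16.CosetEnum
open Cfsg.Agent.H16.Enum (walk)

noncomputable section

theorem hr304 : rangeAll (allAt LL) 157776 519 = true := by decide +kernel
theorem hr305 : rangeAll (allAt LL) 158295 519 = true := by decide +kernel
theorem hr306 : rangeAll (allAt LL) 158814 519 = true := by decide +kernel
theorem hr307 : rangeAll (allAt LL) 159333 519 = true := by decide +kernel
theorem hr308 : rangeAll (allAt LL) 159852 519 = true := by decide +kernel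
theorem hr309 : rangeAll (allAt LL) 160371 519 = true := by decide +kernel
theorem hr310 : rangeAll (allAt LL) 160890 519 = true := by decide +kernel
theorem hr311 : rangeAll (allAt LL) 161409 519 = true := by decide +kernel

end

end Cfsg.Agent.H16.CE.S1690
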