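import Cfsg.Agent.Lib.H16.CE.S1690.T6

set_option autoImplicit false
set_option maxRecDepth 1000000

namespace Cfsg.Agent.H16.CE.S1690
open Cfsg.Agent.H16.CosetEnum
open Cfsg.Agent.H16.Enum (walk)

noncomputable section

theorem hr312 : rangeAll (allAt LL) 161928 519 = true := by decide +kernel
theorem hr313 : rangeAll (allAt LL) 162447 519 = true := by decide +kernel
theorem hr314 : rangeAll (allAt LL) 162966 519 = true := by decide +kernel
theorem hr315 : rangeAll (allAt LL) 163485 519 = true := by decide +kernel
theorem hr316 : rangeAll (allAt LL) 164004 519 = true := by decide +kernel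
theorem hr317 : rangeAll (allAt LL) 164523 519 = true := by decide +kernel
theorem hr318 : rangeAll (allAt LL) 165042 519 = true := by decide +kernel
theorem hr319 : rangeAll (allAt LL) 165561 519 = true := by decide +kernel

end

end Cfsg.Agent.H16.CE.S1690
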