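import Cfsg.Agent.Lib.H16.CE.S1690.T6

set_option autoImplicit false
set_option maxRecDepth 1000000

namespace Cfsg.Agent.H16.CE.S1690
open Cfsg.Agent.H16.CosetEnum
open Cfsg.Agent.H16.Enum (walk)

noncomputable section

theorem hr320 : rangeAll (allAt LL) 166080 519 = true := by decide +kernel
theorem hr321 : rangeAll (allAt LL) 166599 519 = true := by decide +kernel
theorem hr322 : rangeAll (allAt LL) 167118 519 = true := by decide +kernel
theorem hr323 : rangeAll (allAt LL) 167637 519 = true := by decide +kernel
theorem hr324 : rangeAll (allAt LL) 168156 519 = true := by decide +kernel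
theorem hr325 : rangeAll (allAt LL) 168675 519 = true := by decide +kernel
theorem hr326 : rangeAll (allAt LL) 169194 519 = true := by decide +kernel
theorem hr327 : rangeAll (allAt LL) 169713 519 = true := by decide +kernel

end

end Cfsg.Agent.H16.CE.S1690
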