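import Cfsg.Agent.Lib.H16.CE.S1690.T6

set_option autoImplicit false
set_option maxRecDepth 1000000

namespace Cfsg.Agent.H16.CE.S1690
open Cfsg.Agent.H16.CosetEnum
open Cfsg.Agent.H16.Enum (walk)

noncomputable section

theorem hr328 : rangeAll (allAt LL) 170232 519 = true := by decide +kernel
theorem hr329 : rangeAll (allAt LL) 170751 519 = true := by decide +kernel
theorem hr330 : rangeAll (allAt LL) 171270 519 = true := by decide +kernel
theorem hr331 : rangeAll (allAt LL) 171789 519 = true := by decide +kernel
theorem hr332 : rangeAll (allAt LL) 172308 519 = true := by decide +kernel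
theorem hr333 : rangeAll (allAt LL) 172827 519 = true := by decide +kernel
theorem hr334 : rangeAll (allAt LL) 173346 519 = true := by decide +kernel
theorem hr335 : rangeAll (allAt LL) 173865 519 = true := by decide +kernel

end

end Cfsg.Agent.H16.CE.S1690
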