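import Cfsg.Agent.Lib.H16.CE.S1690.T6

set_option autoImplicit false
set_option maxRecDepth 1000000

namespace Cfsg.Agent.H16.CE.S1690
open Cfsg.Agent.H16.CosetEnum
open Cfsg.Agent.H16.Enum (walk)

noncomputable section

theorem hr336 : rangeAll (allAt LL) 174384 519 = true := by decide +kernel
theorem hr337 : rangeAll (allAt LL) 174903 519 = true := by decide +kernel
theorem hr338 : rangeAll (allAt LL) 175422 519 = true := by decide +kernel
theorem hr339 : rangeAll (allAt LL) 175941 519 = true := by decide +kernel
theorem hr340 : rangeAll (allAt LL) 176460 519 = true := by decide +kernel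
theorem hr341 : rangeAll (allAt LL) 176979 519 = true := by decide +kernel
theorem hr342 : rangeAll (allAt LL) 177498 519 = true := by decide +kernel
theorem hr343 : rangeAll (allAt LL) 178017 519 = true := by decide +kernel

end

end Cfsg.Agent.H16.CE.S1690
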