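import Cfsg.Agent.Lib.H16.CE.S1690.T6

set_option autoImplicit false
set_option maxRecDepth 1000000

namespace Cfsg.Agent.H16.CE.S1690
open Cfsg.Agent.H16.CosetEnum
open Cfsg.Agent.H16.Enum (walk)

noncomputable section

theorem hr344 : rangeAll (allAt LL) 178536 519 = true := by decide +kernel
theorem hr345 : rangeAll (allAt LL) 179055 519 = true := by decide +kernel
theorem hr346 : rangeAll (allAt LL) 179574 519 = true := by decide +kernel
theorem hr347 : rangeAll (allAt LL) 180093 519 = true := by decide +kernel
theorem hr348 : rangeAll (allAt LL) 180612 519 = true := by decide +kernel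
theorem hr349 : rangeAll (allAt LL) 181131 519 = true := by decide +kernel
theorem hr350 : rangeAll (allAt LL) 181650 519 = true := by decide +kernel
theorem hr351 : rangeAll (allAt LL) 182169 519 = true := by decide +kernel

end

end Cfsg.Agent.H16.CE.S1690
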