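import Cfsg.Agent.Lib.H16.CE.S1690.T6

set_option autoImplicit false
set_option maxRecDepth 1000000

namespace Cfsg.Agent.H16.CE.S1690
open Cfsg.Agent.H16.CosetEnum
open Cfsg.Agent.H16.Enum (walk)

noncomputable section

theorem hr352 : rangeAll (allAt LL) 182688 519 = true := by decide +kernel
theorem hr353 : rangeAll (allAt LL) 183207 519 = true := by decide +kernel
theorem hr354 : rangeAll (allAt LL) 183726 519 = true := by decide +kernel
theorem hr355 : rangeAll (allAt LL) 184245 519 = true := by decide +kernel
theorem hr356 : rangeAll (allAt LL) 184764 519 = true := by decide +kernel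
theorem hr357 : rangeAll (allAt LL) 185283 519 = true := by decide +kernel
theorem hr358 : rangeAll (allAt LL) 185802 519 = true := by decide +kernel
theorem hr359 : rangeAll (allAt LL) 186321 519 = true := by decide +kernel

end

end Cfsg.Agent.H16.CE.S1690
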