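import Cfsg.Agent.Lib.H16.CE.S1690.T6

set_option autoImplicit false
set_option maxRecDepth 1000000

namespace Cfsg.Agent.H16.CE.S1690
open Cfsg.Agent.H16.CosetEnum
open Cfsg.Agent.H16.Enum (walk)

noncomputable section

theorem hr360 : rangeAll (allAt LL) 186840 519 = true := by decide +kernel
theorem hr361 : rangeAll (allAt LL) 187359 519 = true := by decide +kernel
theorem hr362 : rangeAll (allAt LL) 187878 519 = true := by decide +kernel
theorem hr363 : rangeAll (allAt LL) 188397 519 = true := by decide +kernel
theorem hr364 : rangeAll (allAt LL) 188916 519 = true := by decide +kernel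
theorem hr365 : rangeAll (allAt LL) 189435 519 = true := by decide +kernel
theorem hr366 : rangeAll (allAt LL) 189954 519 = true := by decide +kernel
theorem hr367 : rangeAll (allAt LL) 190473 519 = true := by decide +kernel

end

end Cfsg.Agent.H16.CE.S1690
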