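import Cfsg.Agent.Lib.H16.CE.S1690.T6

set_option autoImplicit false
set_option maxRecDepth 1000000

namespace Cfsg.Agent.H16.CE.S1690
open Cfsg.Agent.H16.CosetEnum
open Cfsg.Agent.H16.Enum (walk)

noncomputable section

theorem hr368 : rangeAll (allAt LL) 190992 519 = true := by decide +kernel
theorem hr369 : rangeAll (allAt LL) 191511 519 = true := by decide +kernel
theorem hr370 : rangeAll (allAt LL) 192030 519 = true := by decide +kernel
theorem hr371 : rangeAll (allAt LL) 192549 519 = true := by decide +kernel
theorem hr372 : rangeAll (allAt LL) 193068 519 = true := by decide +kernel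
theorem hr373 : rangeAll (allAt LL) 193587 519 = true := by decide +kernel
theorem hr374 : rangeAll (allAt LL) 194106 519 = true := by decide +kernel
theorem hr375 : rangeAll (allAt LL) 194625 519 = true := by decide +kernel

end

end Cfsg.Agent.H16.CE.S1690
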