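import Cfsg.Agent.Lib.H16.CE.S1690.T6

set_option autoImplicit false
set_option maxRecDepth 1000000

namespace Cfsg.Agent.H16.CE.S1690
open Cfsg.Agent.H16.CosetEnum
open Cfsg.Agent.H16.Enum (walk)

noncomputable section

theorem hr376 : rangeAll (allAt LL) 195144 519 = true := by decide +kernel
theorem hr377 : rangeAll (allAt LL) 195663 519 = true := by decide +kernel
theorem hr378 : rangeAll (allAt LL) 196182 519 = true := by decide +kernel
theorem hr379 : rangeAll (allAt LL) 196701 519 = true := by decide +kernel
theorem hr380 : rangeAll (allAt LL) 197220 519 = true := by decide +kernel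
theorem hr381 : rangeAll (allAt LL) 197739 519 = true := by decide +kernel
theorem hr382 : rangeAll (allAt LL) 198258 519 = true := by decide +kernel
theorem hr383 : rangeAll (allAt LL) 198777 519 = true := by decide +kernel

end

end Cfsg.Agent.H16.CE.S1690
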