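import Cfsg.Agent.Lib.H16.CE.S1690.T6

set_option autoImplicit false
set_option maxRecDepth 1000000

namespace Cfsg.Agent.H16.CE.S1690
open Cfsg.Agent.H16.CosetEnum
open Cfsg.Agent.H16.Enum (walk)

noncomputable section

theorem hr384 : rangeAll (allAt LL) 199296 519 = true := by decide +kernel
theorem hr385 : rangeAll (allAt LL) 199815 519 = true := by decide +kernel
theorem hr386 : rangeAll (allAt LL) 200334 519 = true := by decide +kernel
theorem hr387 : rangeAll (allAt LL) 200853 519 = true := by decide +kernel
theorem hr388 : rangeAll (allAt LL) 201372 519 = true := by decide +kernel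
theorem hr389 : rangeAll (allAt LL) 201891 519 = true := by decide +kernel
theorem hr390 : rangeAll (allAt LL) 202410 519 = true := by decide +kernel
theorem hr391 : rangeAll (allAt LL) 202929 519 = true := by decide +kernel

end

end Cfsg.Agent.H16.CE.S1690
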