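import Cfsg.Agent.Lib.H16.CE.S1690.T6

set_option autoImplicit false
set_option maxRecDepth 1000000

namespace Cfsg.Agent.H16.CE.S1690
open Cfsg.Agent.H16.CosetEnum
open Cfsg.Agent.H16.Enum (walk)

noncomputable section

theorem hr392 : rangeAll (allAt LL) 203448 519 = true := by decide +kernel
theorem hr393 : rangeAll (allAt LL) 203967 519 = true := by decide +kernel
theorem hr394 : rangeAll (allAt LL) 204486 519 = true := by decide +kernel
theorem hr395 : rangeAll (allAt LL) 205005 519 = true := by decide +kernel
theorem hr396 : rangeAll (allAt LL) 205524 519 = true := by decide +kernel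
theorem hr397 : rangeAll (allAt LL) 206043 519 = true := by decide +kernel
theorem hr398 : rangeAll (allAt LL) 206562 519 = true := by decide +kernel
theorem hr399 : rangeAll (allAt LL) 207081 519 = true := by decide +kernel

end

end Cfsg.Agent.H16.CE.S1690
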