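import Cfsg.Agent.Lib.H16.CE.S1690.T6

set_option autoImplicit false
set_option maxRecDepth 1000000

namespace Cfsg.Agent.H16.CE.S1690
open Cfsg.Agent.H16.CosetEnum
open Cfsg.Agent.H16.Enum (walk)

noncomputable section

theorem hr400 : rangeAll (allAt LL) 207600 519 = true := by decide +kernel
theorem hr401 : rangeAll (allAt LL) 208119 519 = true := by decide +kernel
theorem hr402 : rangeAll (allAt LL) 208638 519 = true := by decide +kernel
theorem hr403 : rangeAll (allAt LL) 209157 519 = true := by decide +kernel
theorem hr404 : rangeAll (allAt LL) 209676 519 = true := by decide +kernel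
theorem hr405 : rangeAll (allAt LL) 210195 519 = true := by decide +kernel
theorem hr406 : rangeAll (allAt LL) 210714 519 = true := by decide +kernel
theorem hr407 : rangeAll (allAt LL) 211233 519 = true := by decide +kernel

end

end Cfsg.Agent.H16.CE.S1690
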