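import Cfsg.Agent.Lib.H16.CE.S1690.T6

set_option autoImplicit false
set_option maxRecDepth 1000000

namespace Cfsg.Agent.H16.CE.S1690
open Cfsg.Agent.H16.CosetEnum
open Cfsg.Agent.H16.Enum (walk)

noncomputable section

theorem hr408 : rangeAll (allAt LL) 211752 519 = true := by decide +kernel
theorem hr409 : rangeAll (allAt LL) 212271 519 = true := by decide +kernel
theorem hr410 : rangeAll (allAt LL) 212790 519 = true := by decide +kernel
theorem hr411 : rangeAll (allAt LL) 213309 519 = true := by decide +kernel
theorem hr412 : rangeAll (allAt LL) 213828 519 = true := by decide +kernel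
theorem hr413 : rangeAll (allAt LL) 214347 519 = true := by decide +kernel
theorem hr414 : rangeAll (allAt LL) 214866 519 = true := by decide +kernel
theorem hr415 : rangeAll (allAt LL) 215385 519 = true := by decide +kernel

end

end Cfsg.Agent.H16.CE.S1690
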