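import Cfsg.Agent.Lib.H16.CE.S1690.T6

set_option autoImplicit false
set_option maxRecDepth 1000000

namespace Cfsg.Agent.H16.CE.S1690
open Cfsg.Agent.H16.CosetEnum
open Cfsg.Agent.H16.Enum (walk)

noncomputable section

theorem hr416 : rangeAll (allAt LL) 215904 519 = true := by decide +kernel
theorem hr417 : rangeAll (allAt LL) 216423 519 = true := by decide +kernel
theorem hr418 : rangeAll (allAt LL) 216942 519 = true := by decide +kernel
theorem hr419 : rangeAll (allAt LL) 217461 519 = true := by decide +kernel
theorem hr420 : rangeAll (allAt LL) 217980 519 = true := by decide +kernel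
theorem hr421 : rangeAll (allAt LL) 218499 519 = true := by decide +kernel
theorem hr422 : rangeAll (allAt LL) 219018 519 = true := by decide +kernel
theorem hr423 : rangeAll (allAt LL) 219537 519 = true := by decide +kernel

end

end Cfsg.Agent.H16.CE.S1690
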