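import Cfsg.Agent.Lib.H16.CE.S1690.T6

set_option autoImplicit false
set_option maxRecDepth 1000000

namespace Cfsg.Agent.H16.CE.S1690
open Cfsg.Agent.H16.CosetEnum
open Cfsg.Agent.H16.Enum (walk)

noncomputable section

theorem hr424 : rangeAll (allAt LL) 220056 519 = true := by decide +kernel
theorem hr425 : rangeAll (allAt LL) 220575 519 = true := by decide +kernel
theorem hr426 : rangeAll (allAt LL) 221094 519 = true := by decide +kernel
theorem hr427 : rangeAll (allAt LL) 221613 519 = true := by decide +kernel
theorem hr428 : rangeAll (allAt LL) 222132 519 = true := by decide +kernel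
theorem hr429 : rangeAll (allAt LL) 222651 519 = true := by decide +kernel
theorem hr430 : rangeAll (allAt LL) 223170 519 = true := by decide +kernel
theorem hr431 : rangeAll (allAt LL) 223689 519 = true := by decide +kernel

end

end Cfsg.Agent.H16.CE.S1690
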