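import Cfsg.Agent.Lib.H16.CE.S1690.T6

set_option autoImplicit false
set_option maxRecDepth 1000000

namespace Cfsg.Agent.H16.CE.S1690
open Cfsg.Agent.H16.CosetEnum
open Cfsg.Agent.H16.Enum (walk)

noncomputable section

theorem hr432 : rangeAll (allAt LL) 224208 519 = true := by decide +kernel
theorem hr433 : rangeAll (allAt LL) 224727 519 = true := by decide +kernel
theorem hr434 : rangeAll (allAt LL) 225246 519 = true := by decide +kernel
theorem hr435 : rangeAll (allAt LL) 225765 519 = true := by decide +kernel
theorem hr436 : rangeAll (allAt LL) 226284 519 = true := by decide +kernel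
theorem hr437 : rangeAll (allAt LL) 226803 519 = true := by decide +kernel
theorem hr438 : rangeAll (allAt LL) 227322 519 = true := by decide +kernel
theorem hr439 : rangeAll (allAt LL) 227841 519 = true := by decide +kernel

end

end Cfsg.Agent.H16.CE.S1690
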