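import Cfsg.Agent.Lib.H16.CE.S1690.T6

set_option autoImplicit false
set_option maxRecDepth 1000000

namespace Cfsg.Agent.H16.CE.S1690
open Cfsg.Agent.H16.CosetEnum
open Cfsg.Agent.H16.Enum (walk)

noncomputable section

theorem hr440 : rangeAll (allAt LL) 228360 519 = true := by decide +kernel
theorem hr441 : rangeAll (allAt LL) 228879 519 = true := by decide +kernel
theorem hr442 : rangeAll (allAt LL) 229398 519 = true := by decide +kernel
theorem hr443 : rangeAll (allAt LL) 229917 519 = true := by decide +kernel
theorem hr444 : rangeAll (allAt LL) 230436 519 = true := by decide +kernel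
theorem hr445 : rangeAll (allAt LL) 230955 519 = true := by decide +kernel
theorem hr446 : rangeAll (allAt LL) 231474 519 = true := by decide +kernel
theorem hr447 : rangeAll (allAt LL) 231993 519 = true := by decide +kernel

end

end Cfsg.Agent.H16.CE.S1690
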