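import Cfsg.Agent.Lib.H16.CE.S1690.T6

set_option autoImplicit false
set_option maxRecDepth 1000000

namespace Cfsg.Agent.H16.CE.S1690
open Cfsg.Agent.H16.CosetEnum
open Cfsg.Agent.H16.Enum (walk)

noncomputable section

theorem hr448 : rangeAll (allAt LL) 232512 519 = true := by decide +kernel
theorem hr449 : rangeAll (allAt LL) 233031 519 = true := by decide +kernel
theorem hr450 : rangeAll (allAt LL) 233550 519 = true := by decide +kernel
theorem hr451 : rangeAll (allAt LL) 234069 519 = true := by decide +kernel
theorem hr452 : rangeAll (allAt LL) 234588 519 = true := by decide +kernel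
theorem hr453 : rangeAll (allAt LL) 235107 519 = true := by decide +kernel
theorem hr454 : rangeAll (allAt LL) 235626 519 = true := by decide +kernel
theorem hr455 : rangeAll (allAt LL) 236145 519 = true := by decide +kernel

end

end Cfsg.Agent.H16.CE.S1690
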