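import Cfsg.Agent.Lib.H16.CE.S1690.T6

set_option autoImplicit false
set_option maxRecDepth 1000000

namespace Cfsg.Agent.H16.CE.S1690
open Cfsg.Agent.H16.CosetEnum
open Cfsg.Agent.H16.Enum (walk)

noncomputable section

theorem hr456 : rangeAll (allAt LL) 236664 519 = true := by decide +kernel
theorem hr457 : rangeAll (allAt LL) 237183 519 = true := by decide +kernel
theorem hr458 : rangeAll (allAt LL) 237702 519 = true := by decide +kernel
theorem hr459 : rangeAll (allAt LL) 238221 519 = true := by decide +kernel
theorem hr460 : rangeAll (allAt LL) 238740 519 = true := by decide +kernel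
theorem hr461 : rangeAll (allAt LL) 239259 519 = true := by decide +kernel
theorem hr462 : rangeAll (allAt LL) 239778 519 = true := by decide +kernel
theorem hr463 : rangeAll (allAt LL) 240297 519 = true := by decide +kernel

end

end Cfsg.Agent.H16.CE.S1690
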