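import Cfsg.Agent.Lib.H16.CE.S1690.T6

set_option autoImplicit false
set_option maxRecDepth 1000000

namespace Cfsg.Agent.H16.CE.S1690
open Cfsg.Agent.H16.CosetEnum
open Cfsg.Agent.H16.Enum (walk)

noncomputable section

theorem hr464 : rangeAll (allAt LL) 240816 519 = true := by decide +kernel
theorem hr465 : rangeAll (allAt LL) 241335 519 = true := by decide +kernel
theorem hr466 : rangeAll (allAt LL) 241854 519 = true := by decide +kernel
theorem hr467 : rangeAll (allAt LL) 242373 519 = true := by decide +kernel
theorem hr468 : rangeAll (allAt LL) 242892 519 = true := by decide +kernel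
theorem hr469 : rangeAll (allAt LL) 243411 519 = true := by decide +kernel
theorem hr470 : rangeAll (allAt LL) 243930 519 = true := by decide +kernel
theorem hr471 : rangeAll (allAt LL) 244449 519 = true := by decide +kernel

end

end Cfsg.Agent.H16.CE.S1690
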