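import Cfsg.Agent.Lib.H16.CE.S1690.T6

set_option autoImplicit false
set_option maxRecDepth 1000000

namespace Cfsg.Agent.H16.CE.S1690
open Cfsg.Agent.H16.CosetEnum
open Cfsg.Agent.H16.Enum (walk)

noncomputable section

theorem hr472 : rangeAll (allAt LL) 244968 519 = true := by decide +kernel
theorem hr473 : rangeAll (allAt LL) 245487 519 = true := by decide +kernel
theorem hr474 : rangeAll (allAt LL) 246006 519 = true := by decide +kernel
theorem hr475 : rangeAll (allAt LL) 246525 519 = true := by decide +kernel
theorem hr476 : rangeAll (allAt LL) 247044 519 = true := by decide +kernel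
theorem hr477 : rangeAll (allAt LL) 247563 519 = true := by decide +kernel
theorem hr478 : rangeAll (allAt LL) 248082 519 = true := by decide +kernel
theorem hr479 : rangeAll (allAt LL) 248601 519 = true := by decide +kernel

end

end Cfsg.Agent.H16.CE.S1690
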