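import Cfsg.Agent.Lib.H16.CE.S1690.T6

set_option autoImplicit false
set_option maxRecDepth 1000000

namespace Cfsg.Agent.H16.CE.S1690
open Cfsg.Agent.H16.CosetEnum
open Cfsg.Agent.H16.Enum (walk)

noncomputable section

theorem hr480 : rangeAll (allAt LL) 249120 519 = true := by decide +kernel
theorem hr481 : rangeAll (allAt LL) 249639 519 = true := by decide +kernel
theorem hr482 : rangeAll (allAt LL) 250158 519 = true := by decide +kernel
theorem hr483 : rangeAll (allAt LL) 250677 519 = true := by decide +kernel
theorem hr484 : rangeAll (allAt LL) 251196 519 = true := by decide +kernel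
theorem hr485 : rangeAll (allAt LL) 251715 519 = true := by decide +kernel
theorem hr486 : rangeAll (allAt LL) 252234 519 = true := by decide +kernel
theorem hr487 : rangeAll (allAt LL) 252753 519 = true := by decide +kernel

end

end Cfsg.Agent.H16.CE.S1690
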