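import Cfsg.Agent.Lib.H16.CE.S1690.T6

set_option autoImplicit false
set_option maxRecDepth 1000000

namespace Cfsg.Agent.H16.CE.S1690
open Cfsg.Agent.H16.CosetEnum
open Cfsg.Agent.H16.Enum (walk)

noncomputable section

theorem hr488 : rangeAll (allAt LL) 253272 519 = true := by decide +kernel
theorem hr489 : rangeAll (allAt LL) 253791 519 = true := by decide +kernel
theorem hr490 : rangeAll (allAt LL) 254310 519 = true := by decide +kernel
theorem hr491 : rangeAll (allAt LL) 254829 519 = true := by decide +kernel
theorem hr492 : rangeAll (allAt LL) 255348 519 = true := by decide +kernel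
theorem hr493 : rangeAll (allAt LL) 255867 519 = true := by decide +kernel
theorem hr494 : rangeAll (allAt LL) 256386 519 = true := by decide +kernel
theorem hr495 : rangeAll (allAt LL) 256905 519 = true := by decide +kernel

end

end Cfsg.Agent.H16.CE.S1690
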