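import Cfsg.Agent.Lib.H16.CE.S1690.T6

set_option autoImplicit false
set_option maxRecDepth 1000000

namespace Cfsg.Agent.H16.CE.S1690
open Cfsg.Agent.H16.CosetEnum
open Cfsg.Agent.H16.Enum (walk)

noncomputable section

theorem hr496 : rangeAll (allAt LL) 257424 519 = true := by decide +kernel
theorem hr497 : rangeAll (allAt LL) 257943 519 = true := by decide +kernel
theorem hr498 : rangeAll (allAt LL) 258462 519 = true := by decide +kernel
theorem hr499 : rangeAll (allAt LL) 258981 519 = true := by decide +kernel
theorem hr500 : rangeAll (allAt LL) 259500 519 = true := by decide +kernel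
theorem hr501 : rangeAll (allAt LL) 260019 519 = true := by decide +kernel
theorem hr502 : rangeAll (allAt LL) 260538 519 = true := by decide +kernel
theorem hr503 : rangeAll (allAt LL) 261057 519 = true := by decide +kernel

end

end Cfsg.Agent.H16.CE.S1690
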