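import Cfsg.Agent.Lib.H16.CE.S1690.T6

set_option autoImplicit false
set_option maxRecDepth 1000000

namespace Cfsg.Agent.H16.CE.S1690
open Cfsg.Agent.H16.CosetEnum
open Cfsg.Agent.H16.Enum (walk)

noncomputable section

theorem hr504 : rangeAll (allAt LL) 261576 519 = true := by decide +kernel
theorem hr505 : rangeAll (allAt LL) 262095 519 = true := by decide +kernel
theorem hr506 : rangeAll (allAt LL) 262614 519 = true := by decide +kernel
theorem hr507 : rangeAll (allAt LL) 263133 519 = true := by decide +kernel
theorem hr508 : rangeAll (allAt LL) 263652 519 = true := by decide +kernel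
theorem hr509 : rangeAll (allAt LL) 264171 519 = true := by decide +kernel
theorem hr510 : rangeAll (allAt LL) 264690 519 = true := by decide +kernel
theorem hr511 : rangeAll (allAt LL) 265209 519 = true := by decide +kernel

end

end Cfsg.Agent.H16.CE.S1690
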