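import Cfsg.Agent.Lib.H16.CE.S1690.T6

set_option autoImplicit false
set_option maxRecDepth 1000000

namespace Cfsg.Agent.H16.CE.S1690
open Cfsg.Agent.H16.CosetEnum
open Cfsg.Agent.H16.Enum (walk)

noncomputable section

theorem hr512 : rangeAll (allAt LL) 265728 519 = true := by decide +kernel
theorem hr513 : rangeAll (allAt LL) 266247 519 = true := by decide +kernel
theorem hr514 : rangeAll (allAt LL) 266766 519 = true := by decide +kernel
theorem hr515 : rangeAll (allAt LL) 267285 519 = true := by decide +kernel
theorem hr516 : rangeAll (allAt LL) 267804 519 = true := by decide +kernel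
theorem hr517 : rangeAll (allAt LL) 268323 519 = true := by decide +kernel
theorem hr518 : rangeAll (allAt LL) 268842 519 = true := by decide +kernel
theorem hr519 : rangeAll (allAt LL) 269361 519 = true := by decide +kernel

end

end Cfsg.Agent.H16.CE.S1690
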