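import Cfsg.Agent.Lib.H16.CE.S1690.T6

set_option autoImplicit false
set_option maxRecDepth 1000000

namespace Cfsg.Agent.H16.CE.S1690
open Cfsg.Agent.H16.CosetEnum
open Cfsg.Agent.H16.Enum (walk)

noncomputable section

theorem hr520 : rangeAll (allAt LL) 269880 519 = true := by decide +kernel
theorem hr521 : rangeAll (allAt LL) 270399 519 = true := by decide +kernel
theorem hr522 : rangeAll (allAt LL) 270918 519 = true := by decide +kernel
theorem hr523 : rangeAll (allAt LL) 271437 519 = true := by decide +kernel
theorem hr524 : rangeAll (allAt LL) 271956 519 = true := by decide +kernel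
theorem hr525 : rangeAll (allAt LL) 272475 519 = true := by decide +kernel
theorem hr526 : rangeAll (allAt LL) 272994 519 = true := by decide +kernel
theorem hr527 : rangeAll (allAt LL) 273513 519 = true := by decide +kernel

end

end Cfsg.Agent.H16.CE.S1690
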