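import Cfsg.Agent.Lib.H16.CE.S1690.T6

set_option autoImplicit false
set_option maxRecDepth 1000000

namespace Cfsg.Agent.H16.CE.S1690
open Cfsg.Agent.H16.CosetEnum
open Cfsg.Agent.H16.Enum (walk)

noncomputable section

theorem hr528 : rangeAll (allAt LL) 274032 519 = true := by decide +kernel
theorem hr529 : rangeAll (allAt LL) 274551 519 = true := by decide +kernel
theorem hr530 : rangeAll (allAt LL) 275070 519 = true := by decide +kernel
theorem hr531 : rangeAll (allAt LL) 275589 519 = true := by decide +kernel
theorem hr532 : rangeAll (allAt LL) 276108 519 = true := by decide +kernel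
theorem hr533 : rangeAll (allAt LL) 276627 519 = true := by decide +kernel
theorem hr534 : rangeAll (allAt LL) 277146 519 = true := by decide +kernel
theorem hr535 : rangeAll (allAt LL) 277665 519 = true := by decide +kernel

end

end Cfsg.Agent.H16.CE.S1690
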