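import Cfsg.Agent.Lib.H16.CE.S1690.T6

set_option autoImplicit false
set_option maxRecDepth 1000000

namespace Cfsg.Agent.H16.CE.S1690
open Cfsg.Agent.H16.CosetEnum
open Cfsg.Agent.H16.Enum (walk)

noncomputable section

theorem hr536 : rangeAll (allAt LL) 278184 519 = true := by decide +kernel
theorem hr537 : rangeAll (allAt LL) 278703 519 = true := by decide +kernel
theorem hr538 : rangeAll (allAt LL) 279222 519 = true := by decide +kernel
theorem hr539 : rangeAll (allAt LL) 279741 519 = true := by decide +kernel
theorem hr540 : rangeAll (allAt LL) 280260 519 = true := by decide +kernel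
theorem hr541 : rangeAll (allAt LL) 280779 519 = true := by decide +kernel
theorem hr542 : rangeAll (allAt LL) 281298 519 = true := by decide +kernel
theorem hr543 : rangeAll (allAt LL) 281817 519 = true := by decide +kernel

end

end Cfsg.Agent.H16.CE.S1690
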