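import Cfsg.Agent.Lib.H16.CE.S1690.T6

set_option autoImplicit false
set_option maxRecDepth 1000000

namespace Cfsg.Agent.H16.CE.S1690
open Cfsg.Agent.H16.CosetEnum
open Cfsg.Agent.H16.Enum (walk)

noncomputable section

theorem hr544 : rangeAll (allAt LL) 282336 519 = true := by decide +kernel
theorem hr545 : rangeAll (allAt LL) 282855 519 = true := by decide +kernel
theorem hr546 : rangeAll (allAt LL) 283374 519 = true := by decide +kernel
theorem hr547 : rangeAll (allAt LL) 283893 519 = true := by decide +kernel
theorem hr548 : rangeAll (allAt LL) 284412 519 = true := by decide +kernel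
theorem hr549 : rangeAll (allAt LL) 284931 519 = true := by decide +kernel
theorem hr550 : rangeAll (allAt LL) 285450 519 = true := by decide +kernel
theorem hr551 : rangeAll (allAt LL) 285969 519 = true := by decide +kernel

end

end Cfsg.Agent.H16.CE.S1690
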