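import Cfsg.Agent.Lib.H16.CE.S1690.T6

set_option autoImplicit false
set_option maxRecDepth 1000000

namespace Cfsg.Agent.H16.CE.S1690
open Cfsg.Agent.H16.CosetEnum
open Cfsg.Agent.H16.Enum (walk)

noncomputable section

theorem hr552 : rangeAll (allAt LL) 286488 519 = true := by decide +kernel
theorem hr553 : rangeAll (allAt LL) 287007 519 = true := by decide +kernel
theorem hr554 : rangeAll (allAt LL) 287526 519 = true := by decide +kernel
theorem hr555 : rangeAll (allAt LL) 288045 519 = true := by decide +kernel
theorem hr556 : rangeAll (allAt LL) 288564 519 = true := by decide +kernel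
theorem hr557 : rangeAll (allAt LL) 289083 519 = true := by decide +kernel
theorem hr558 : rangeAll (allAt LL) 289602 519 = true := by decide +kernel
theorem hr559 : rangeAll (allAt LL) 290121 519 = true := by decide +kernel

end

end Cfsg.Agent.H16.CE.S1690
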