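import Cfsg.Agent.Lib.H16.CE.S1690.T6

set_option autoImplicit false
set_option maxRecDepth 1000000

namespace Cfsg.Agent.H16.CE.S1690
open Cfsg.Agent.H16.CosetEnum
open Cfsg.Agent.H16.Enum (walk)

noncomputable section

theorem hr560 : rangeAll (allAt LL) 290640 519 = true := by decide +kernel
theorem hr561 : rangeAll (allAt LL) 291159 519 = true := by decide +kernel
theorem hr562 : rangeAll (allAt LL) 291678 519 = true := by decide +kernel
theorem hr563 : rangeAll (allAt LL) 292197 519 = true := by decide +kernel
theorem hr564 : rangeAll (allAt LL) 292716 519 = true := by decide +kernel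
theorem hr565 : rangeAll (allAt LL) 293235 519 = true := by decide +kernel
theorem hr566 : rangeAll (allAt LL) 293754 519 = true := by decide +kernel
theorem hr567 : rangeAll (allAt LL) 294273 519 = true := by decide +kernel

end

end Cfsg.Agent.H16.CE.S1690
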