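import Cfsg.Agent.Lib.H16.CE.S1690.T6

set_option autoImplicit false
set_option maxRecDepth 1000000

namespace Cfsg.Agent.H16.CE.S1690
open Cfsg.Agent.H16.CosetEnum
open Cfsg.Agent.H16.Enum (walk)

noncomputable section

theorem hr568 : rangeAll (allAt LL) 294792 519 = true := by decide +kernel
theorem hr569 : rangeAll (allAt LL) 295311 519 = true := by decide +kernel
theorem hr570 : rangeAll (allAt LL) 295830 519 = true := by decide +kernel
theorem hr571 : rangeAll (allAt LL) 296349 519 = true := by decide +kernel
theorem hr572 : rangeAll (allAt LL) 296868 519 = true := by decide +kernel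
theorem hr573 : rangeAll (allAt LL) 297387 519 = true := by decide +kernel
theorem hr574 : rangeAll (allAt LL) 297906 519 = true := by decide +kernel
theorem hr575 : rangeAll (allAt LL) 298425 519 = true := by decide +kernel

end

end Cfsg.Agent.H16.CE.S1690
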