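import Cfsg.Agent.Lib.H16.CE.S1690.T6

set_option autoImplicit false
set_option maxRecDepth 1000000

namespace Cfsg.Agent.H16.CE.S1690
open Cfsg.Agent.H16.CosetEnum
open Cfsg.Agent.H16.Enum (walk)

noncomputable section

theorem hr576 : rangeAll (allAt LL) 298944 519 = true := by decide +kernel
theorem hr577 : rangeAll (allAt LL) 299463 519 = true := by decide +kernel
theorem hr578 : rangeAll (allAt LL) 299982 519 = true := by decide +kernel
theorem hr579 : rangeAll (allAt LL) 300501 519 = true := by decide +kernel
theorem hr580 : rangeAll (allAt LL) 301020 519 = true := by decide +kernel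
theorem hr581 : rangeAll (allAt LL) 301539 519 = true := by decide +kernel
theorem hr582 : rangeAll (allAt LL) 302058 519 = true := by decide +kernel
theorem hr583 : rangeAll (allAt LL) 302577 519 = true := by decide +kernel

end

end Cfsg.Agent.H16.CE.S1690
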