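import Cfsg.Agent.Lib.H16.CE.S1690.T6

set_option autoImplicit false
set_option maxRecDepth 1000000

namespace Cfsg.Agent.H16.CE.S1690
open Cfsg.Agent.H16.CosetEnum
open Cfsg.Agent.H16.Enum (walk)

noncomputable section

theorem hr584 : rangeAll (allAt LL) 303096 519 = true := by decide +kernel
theorem hr585 : rangeAll (allAt LL) 303615 519 = true := by decide +kernel
theorem hr586 : rangeAll (allAt LL) 304134 519 = true := by decide +kernel
theorem hr587 : rangeAll (allAt LL) 304653 519 = true := by decide +kernel
theorem hr588 : rangeAll (allAt LL) 305172 519 = true := by decide +kernel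
theorem hr589 : rangeAll (allAt LL) 305691 519 = true := by decide +kernel
theorem hr590 : rangeAll (allAt LL) 306210 519 = true := by decide +kernel
theorem hr591 : rangeAll (allAt LL) 306729 207 = true := by decide +kernel

end

end Cfsg.Agent.H16.CE.S1690
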