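import Cfsg.Agent.Lib.H16.CE.S1690.T6

set_option autoImplicit false
set_option maxRecDepth 1000000

namespace Cfsg.Agent.H16.CE.S1690
open Cfsg.Agent.H16.CosetEnum
open Cfsg.Agent.H16.Enum (walk)

noncomputable section

theorem hr8 : rangeAll (allAt LL) 4152 519 = true := by decide +kernel
theorem hr9 : rangeAll (allAt LL) 4671 519 = true := by decide +kernel
theorem hr10 : rangeAll (allAt LL) 5190 519 = true := by decide +kernel
theorem hr11 : rangeAll (allAt LL) 5709 519 = true := by decide +kernel
theorem hr12 : rangeAll (allAt LL) 6228 519 = true := by decide +kernel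
theorem hr13 : rangeAll (allAt LL) 6747 519 = true := by decide +kernel
theorem hr14 : rangeAll (allAt LL) 7266 519 = true := by decide +kernel
theorem hr15 : rangeAll (allAt LL) 7785 519 = true := by decide +kernel

end

end Cfsg.Agent.H16.CE.S1690
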